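import Cfsg.Agent.H18.RfSc
import Cfsg.Agent.H83.Syl

/-! Project RF, piece DK. -/

set_option autoImplicit false

namespace Cfsg.Agent.H54.RfDk

open Cfsg Subgroup Cfsg.Agent.H18.MaxOff Cfsg.Agent.H18.Rf

universe u

variable {G : Type u} [Group G]

theorem off_map {K : Subgroup G} {V : Subgroup G} (hV : V ≤ K) {X Y : Subgroup K}
    (h : Off (V.subgroupOf K) X Y) : Off V (X.map K.subtype) (Y.map K.subtype) := by
  have mm : ∀ (B : Subgroup K) (x : K), (x : G) ∈ B.map K.subtype ↔ x ∈ B := fun B x =>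
    mem_map_iff_mem K.subtype_injective
  refine ⟨?_, ?_, ?_, fun e => h.ny fun y hy => e ((mm Y y).2 hy),
    fun e => h.nx fun a ha => (mm X a).1 (e ha), fun a ha => ?_, ?_, ?_, ?_⟩
  · rintro _ ⟨y, hy, rfl⟩
    have := h.yn hy
    rwa [NN, ← subgroupOf_normalizer_eq hV] at this
  · rintro _ ⟨y, hy, rfl⟩
    exact congrArg Subtype.val (h.ye y hy)
  · rintro _ ⟨x, hx, rfl⟩
    exact h.xa hx
  · refine (mm X ⟨a, hV ha⟩).trans ((h.xc ⟨a, hV ha⟩ ha).trans ⟨?_, fun H y hy => ?_⟩)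
    · rintro H _ ⟨y, hy, rfl⟩
      exact (mm Y _).2 (H y hy)
    · exact (mm Y _).1 (H y ((mm Y y).2 hy))
  · rw [card_map_of_injective K.subtype_injective, card_map_of_injective K.subtype_injective,
      h.card]
  · rintro t ht htX _ ⟨y, hy, rfl⟩ H
    exact h.inj ⟨t, hV ht⟩ ht (fun e => htX ((mm X _).2 e)) y hy ((mm Y _).1 H)
  · rintro t ht _ ⟨y, hy, rfl⟩
    exact (mm X _).2 (h.all ⟨t, hV ht⟩ ht y hy)

theorem sc [Finite G] (hM : MoAStmt.{u}) {V : Subgroup G} (el : ∀ v ∈ V, v * v = 1) (wc : WC V)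
    {x : G} (hx : x ∈ V) (hN : ∀ X Y, Off V X Y → x ∉ Y) :
    ∀ k ∈ C1 x, cj k V ⊓ NN V ≤ V := by
  intro k hk
  by_contra hn
  have hV : V ≤ C1 x := fun v hv => mem_centralizer_singleton_iff.2 (comm_of_sq el hv hx)
  have e1 : ∀ (k y : C1 x), y ∈ cj k (V.subgroupOf (C1 x)) ↔ (y : G) ∈ cj (k : G) V :=
    fun k y => by rw [mem_cj, mem_cj]; rfl
  have e2 : ∀ y : C1 x, y ∈ NN (V.subgroupOf (C1 x)) ↔ (y : G) ∈ NN V := fun y => by
    rw [NN, ← subgroupOf_normalizer_eq hV]; rfl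
  have e3 : ∀ k : C1 x, cj (k : G) V ≤ C1 x := fun k y hy => by
    have := mul_mem (mul_mem k.2 (hV (mem_cj.1 hy))) (inv_mem k.2)
    simpa [mul_assoc] using this
  have wc' : WC (V.subgroupOf (C1 x)) := fun k hk => by
    have := wc k fun y hy => (e2 ⟨y, e3 k hy⟩).1 (hk ((e1 k _).2 hy))
    ext y
    rw [e1, this]; rfl
  obtain ⟨g, X, Y, hY, -, hO⟩ := hM _ (V.subgroupOf (C1 x))
    (fun a ha => Subtype.ext (el a ha)) wc' ⟨⟨k, hk⟩, fun H => hn fun y hy =>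
      H (x := ⟨y, e3 ⟨k, hk⟩ hy.1⟩) ⟨(e1 _ _).2 hy.1, (e2 _).2 hy.2⟩⟩
  refine hN _ _ (off_map hV hO) ⟨⟨x, hV hx⟩, ?_, rfl⟩
  rw [hY]
  refine ⟨(e1 _ _).2 (mem_cj.2 ?_), (e2 _).2 (le_normalizer hx)⟩
  show (g : G)⁻¹ * x * g ∈ V
  rwa [mul_assoc, ← mem_centralizer_singleton_iff.1 g.2, inv_mul_cancel_left]

theorem card_mul_le [Finite G] {A B S : Subgroup G} (hA : A ≤ S) (hB : B ≤ S) :
    Nat.card A * Nat.card B ≤ Nat.card (A ⊓ B : Subgroup G) * Nat.card S := by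
  have h1 : Nat.card (B.subgroupOf A) * B.relIndex A = Nat.card A := card_mul_index _
  have h2 : Nat.card (B.subgroupOf S) * B.relIndex S = Nat.card S := card_mul_index _
  rw [Nat.card_congr (subgroupOfEquivOfLe hB).toEquiv] at h2
  rw [← inf_subgroupOf_left, Nat.card_congr (subgroupOfEquivOfLe inf_le_left).toEquiv] at h1
  have h3 : B.relIndex A ≤ B.relIndex S := relIndex_le_of_le_right hA index_ne_zero_of_finite
  rw [← h1, ← h2, mul_assoc, mul_comm (Nat.card B)]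
  gcongr

theorem dk (hM : MoAStmt.{u}) (hN : NdStmt.{u}) (h2 : F2Stmt.{u}) (h3 : F3Stmt.{u}) :
    DkStmt.{u} := by
  intro G _ _ V ρ ψ O Q W h q hq hqW c hc g0 e0
  have : Fact (Nat.Prime 7) := ⟨by norm_num⟩
  have el := h.st.el
  have hcV : ψ c ∈ V := h.gol.mem c hc.1
  have hq0 : q ∈ cj g0 V := mem_cj.2 (by rw [← e0]; simpa [mul_assoc] using hcV)
  have qq : q * q = 1 := sq_cj el g0 q hq0
  have hL := h.lg.ci q hq hqW qq
  set L := MM V (ψ O) ⊓ C1 q with hLdef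
  obtain ⟨S1, hS1⟩ := H83.exists_isSylowIn 2 L
  obtain ⟨S, hS, hS1S⟩ := H83.exists_isSylowIn_ge (hS1.le.trans inf_le_right) hS1.isPGroup
  obtain ⟨k, hk, hkS⟩ := hS.exists_conj_le (P := cj g0 V)
    (fun v hv => mem_centralizer_singleton_iff.2 (comm_of_sq (sq_cj el g0) hv hq0))
    (pg_of_sq (sq_cj el g0))
  obtain ⟨g, e, hgS⟩ : ∃ g : G, g * ψ c * g⁻¹ = q ∧ cj g V ≤ S := by
    refine ⟨k * g0, ?_, fun x hx => hkS (H83.mem_cj.2 ?_)⟩
    · rw [show k * g0 * ψ c * (k * g0)⁻¹ = k * (g0 * ψ c * g0⁻¹) * k⁻¹ by group, e0,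
        mem_centralizer_singleton_iff.1 hk, mul_inv_cancel_right]
    · rw [← cj_cj] at hx
      exact mem_cj.1 hx
  clear hkS hk k hq0 e0 g0
  have hqg : q ∈ cj g V := mem_cj.2 (by rw [← e]; simpa [mul_assoc] using hcV)
  have hK : ∀ x ∈ C1 q, g⁻¹ * x * g ∈ C1 (ψ c) := fun x hx => by
    have := mem_centralizer_singleton_iff.1 hx
    rw [← e] at this
    refine mem_centralizer_singleton_iff.2 ?_
    calc g⁻¹ * x * g * ψ c = g⁻¹ * (x * (g * ψ c * g⁻¹)) * g := by group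
      _ = _ := by rw [this]; group
  have hSN : S ≤ NN (cj g V) := (h.wc.cj g).le_norm hS.isPGroup hgS
  have hNg : ∀ x ∈ NN (cj g V), g⁻¹ * x * g ∈ NN V := fun x hx => by
    rw [NN, ← cj_norm] at hx
    exact mem_cj.1 hx
  have cS : Nat.card S ≤ 2 ^ 18 := by
    rw [← card_cj g⁻¹]
    refine (h3 G V ρ ψ h.st h.gol c hc).2.2 _ (hS.isPGroup.map _) ?_
    rintro _ ⟨x, hx, rfl⟩
    have : (MulAut.conj g⁻¹).toMonoidHom x = g⁻¹ * x * g := by simp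
    rw [this]
    exact ⟨hNg x (hSN hx), hK x (hS.le hx)⟩
  have cS1 : 2 ^ 17 ≤ Nat.card S1 := by
    have h1 : Nat.card (S1.subgroupOf L) * S1.relIndex L = Nat.card L := card_mul_index _
    rw [Nat.card_congr (subgroupOfEquivOfLe hS1.le).toEquiv, hL] at h1
    exact Nat.le_of_dvd Nat.card_pos ((hS1.coprime_relIndex.symm.pow_left 17).dvd_of_dvd_mul_right
      (h1 ▸ dvd_mul_right _ _))
  have cY : 2 ^ 10 ≤ Nat.card (S1 ⊓ cj g V : Subgroup G) := by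
    have := card_mul_le hS1S hgS
    rw [card_cj, h.st.card] at this
    have h4 : 2 ^ 10 * 2 ^ 18 ≤ Nat.card (S1 ⊓ cj g V : Subgroup G) * 2 ^ 18 :=
      calc 2 ^ 10 * 2 ^ 18 = 2 ^ 17 * 2 ^ 11 := by norm_num
        _ ≤ Nat.card S1 * 2 ^ 11 := by gcongr
        _ ≤ _ := this
        _ ≤ _ := by gcongr
    exact Nat.le_of_mul_le_mul_right h4 (by norm_num)
  have hqL : q ∈ L := ⟨h.lc.qm hq, mem_centralizer_singleton_iff.2 rfl⟩
  have hqS : q ∈ S1 := hS1.mem_of_norm hqL (k := 1) (by rw [pow_one, pow_two, qq])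
    (mem_norm_of_le fun a ha => by
      rwa [← mem_centralizer_singleton_iff.1 (hS1.le ha).2, mul_inv_cancel_right])
  have hVK : V ⊓ C1 q ≤ S1 := hS1.le_of_norm
    (fun v hv => ⟨⟨le_normalizer hv.1,
      mem_centralizer_singleton_iff.2 (comm_of_sq el hv.1 h.lc.zV)⟩, hv.2⟩)
    ((pg_of_sq el).to_le inf_le_left)
    (fun s hs => mem_norm_of_le fun a ha => ⟨(mem_normalizer_iff.1 (hS1.le hs).1.1 a).1 ha.1,
      (C1 q).mul_mem ((C1 q).mul_mem (hS1.le hs).2 ha.2) ((C1 q).inv_mem (hS1.le hs).2)⟩)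
  obtain ⟨s, hs⟩ := exists_prime_orderOf_dvd_card' (G := L) 7 (by rw [hL]; norm_num)
  have hsc := sc hM el h.wc hcV fun X Y hO => hN G V ρ ψ h.st h.gol X Y hO c hc
  have s1 := h2 G V ρ ψ h.st h.gol (S1 ⊓ cj g V) (fun y hy => (hS1.le hy.1).1.1)
    (fun y hy => sq_cj el g y hy.2) cY
    (fun H => hqW (h.lc.qv ▸ (⟨hq, H ⟨hqS, hqg⟩⟩ : q ∈ Q ⊓ V))) s s.2.1.1
    (by rw [← hs]; exact congrArg Subtype.val (pow_orderOf_eq_one s))
    (mem_norm_of_le fun d hd => by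
      have d1 : (s : G) * d * (s : G)⁻¹ ∈ V := (mem_normalizer_iff.1 s.2.1.1 d).1 hd.2
      have d2 : (s : G) * d * (s : G)⁻¹ ∈ S1 :=
        hVK ⟨d1, (C1 q).mul_mem ((C1 q).mul_mem s.2.2 (hS1.le hd.1.1).2) ((C1 q).inv_mem s.2.2)⟩
      refine ⟨⟨d2, mem_cj.2 (hsc _ (hK s s.2.2) ⟨mem_cj.2 ?_, hNg _ (hSN (hS1S d2))⟩)⟩, d1⟩
      have := mem_cj.1 hd.1.2
      simpa [mul_assoc] using this)
  have : s = 1 := Subtype.ext s1
  rw [this, orderOf_one] at hs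
  omega

end Cfsg.Agent.H54.RfDk
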