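import Cfsg.Agent.H35.RfQ

/-! Project RF, piece XQ1. -/

set_option autoImplicit false

namespace Cfsg.Agent.H54.RfXq1

open Cfsg Subgroup Cfsg.Agent.H18.Rf Cfsg.Agent.H35.RF
open Cfsg.Agent.H49 (XS LX)
open scoped commutatorElement

universe u

/-- automorphisms induced modulo the centre -/
def qa (Y : Type u) [Group Y] : MulAut Y →* MulAut (Y ⧸ center Y) :=
  MonoidHom.mk' (fun α => QuotientGroup.congr (center Y) (center Y) α
    (characteristic_iff_map_eq.1 inferInstance α)) fun α β => by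
      ext x
      obtain ⟨x, rfl⟩ := QuotientGroup.mk_surjective x
      rfl

variable {G : Type u} [Group G] {Q : Subgroup G} {z : G}

open Classical in
/-- the indicator of non-trivial elements -/
noncomputable def ch (g : G) : ZMod 2 := if g = 1 then 0 else 1

theorem ch_mul (h : XS Q z) {a b : G} (ha : a = 1 ∨ a = z) (hb : b = 1 ∨ b = z) :
    ch (a * b) = ch a + ch b := by
  have h1 : ch (1 : G) = 0 := if_pos rfl
  rcases ha with rfl | rfl
  · rw [one_mul, h1, zero_add]
  rcases hb with rfl | rfl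
  · rw [mul_one, h1, add_zero]
  · simp only [ch, h.zz, h.ne, if_true, if_false]; decide

theorem ch_eq {g : G} : ch g = 0 ↔ g = 1 := by
  unfold ch; split_ifs with e <;> simp [e]

/-- the squaring map -/
noncomputable def sq (a : Q ⧸ center Q) : ZMod 2 := ch ((a.out : G) * a.out)

theorem sq_mk (h : XS Q z) (q : Q) : sq (QuotientGroup.mk' (center Q) q) = ch ((q : G) * q) := by
  obtain ⟨c, hc⟩ := QuotientGroup.mk_out_eq_mul (center Q) q
  rw [sq, QuotientGroup.mk'_apply, hc]
  congr 1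
  rcases h.mem_center.1 c.2 with e | e
  · rw [coe_mul, e, mul_one]
  · rw [coe_mul, e, mul_assoc, ← mul_assoc z, ← h.cen q q.2, mul_assoc, h.zz, mul_one]

open Classical in
theorem beta (h : XS Q z) (x y : Q) :
    sq (QuotientGroup.mk' (center Q) x * QuotientGroup.mk' (center Q) y) +
      sq (QuotientGroup.mk' (center Q) x) + sq (QuotientGroup.mk' (center Q) y) =
      if (x : G) * y = y * x then 0 else 1 := by
  rw [← map_mul, sq_mk h, sq_mk h, sq_mk h, coe_mul]
  have k : ∀ a b c : ZMod 2, a + b + c + a + b = c := by decide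
  have hxy : (x : G) * x * (y * y) = 1 ∨ (x : G) * x * (y * y) = z :=
    h.mem_Z.1 (mul_mem (h.sq_mem x.2) (h.sq_mem y.2))
  split_ifs with e
  · rw [show (x : G) * y * (x * y) = x * x * (y * y) by
      rw [mul_assoc, ← mul_assoc (y : G), ← e]; group, ch_mul h (h.sq x.2) (h.sq y.2)]
    simpa using k _ _ 0
  · rw [show (x : G) * y * (x * y) = x * x * (y * y) * z by
      rw [mul_assoc, ← mul_assoc (y : G), h.comm_of_ne y.2 x.2 (Ne.symm e), mul_assoc _ z,
        ← h.cen y y.2]; group, ch_mul h hxy (Or.inr rfl), ch_mul h (h.sq x.2) (h.sq y.2), k]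
    exact if_neg h.ne

theorem xq1 : Xq1Stmt.{u} := by
  intro G _ _ z Q hl cQ hk
  classical
  have h := hl.toXS
  let α := QuotientGroup.mk' (center Q)
  have αs : Function.Surjective α := QuotientGroup.mk'_surjective _
  have αk : ∀ q, α q = 1 ↔ (q : G) ∈ zpowers z := fun q => by
    rw [h.mem_Z, ← h.mem_center]; exact QuotientGroup.eq_one_iff q
  let ψ : C1 z →* MulAut (Q ⧸ center Q) :=
    (qa Q).comp (Q.normalizerMonoidHom.comp (inclusion hl.nz))
  let cj : C1 z → Q → Q := fun c q => ⟨c * q * (c : G)⁻¹, (mem_normalizer_iff.1 (hl.nz c.2) q).1 q.2⟩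
  have hψ : ∀ c q, ψ c (α q) = α (cj c q) := fun _ _ => rfl
  have hfix : ∀ c q, ψ c (α q) = α q ↔ ⁅(c : G), (q : G)⁆ ∈ zpowers z := fun c q => by
    rw [hψ, ← mul_inv_eq_one, ← map_inv, ← map_mul, αk]; rfl
  refine ⟨ψ.range, Q ⧸ center Q, inferInstance, inferInstance,
    Finite.of_surjective _ ψ.rangeRestrict_surjective, inferInstance, ψ.rangeRestrict, α,
    ψ.range.subtype, sq, ⟨ψ.rangeRestrict_surjective, fun c => ?_, αs, αk, fun c q q' e => ?_,
    fun q => by rw [sq_mk h, ch_eq]⟩, ψ.range.subtype_injective, fun a => ?_, ?_, ?_, ?_, ?_⟩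
  · rw [← Subtype.coe_inj]
    show ψ c = 1 ↔ _
    constructor
    · intro e
      exact hk c c.2 fun q hq => (hfix c ⟨q, hq⟩).1 (by rw [e]; rfl)
    · intro hc
      ext a
      obtain ⟨q, rfl⟩ := αs a
      exact (hfix c q).2 (h.commutator_mem hc q.2)
  · show ψ c (α q) = _
    rw [hψ]
    congr 1
    exact Subtype.ext e.symm
  · obtain ⟨q, rfl⟩ := αs a
    rw [← map_mul, αk]
    exact h.sq_mem q.2
  · have h1 := card_eq_card_quotient_mul_card_subgroup (center Q)
    rw [cQ, ← H49.card_center_map, h.center_map, h.card_Z] at h1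
    omega
  · rintro ⟨_, c, rfl⟩ a
    obtain ⟨q, rfl⟩ := αs a
    show sq (ψ c (α q)) = _
    rw [hψ, sq_mk h, sq_mk h]
    have : ((cj c q : Q) : G) * cj c q = c * (q * q) * (c : G)⁻¹ := by
      show (c : G) * q * (c : G)⁻¹ * (c * q * (c : G)⁻¹) = _
      group
    rw [this]
    simp only [ch, conj_eq_one_iff]
  · intro a a' b
    obtain ⟨x, rfl⟩ := αs a
    obtain ⟨x', rfl⟩ := αs a'
    obtain ⟨y, rfl⟩ := αs b
    rw [← map_mul α x x', beta h, beta h, beta h, coe_mul]
    by_cases e1 : (x : G) * y = y * x <;> by_cases e2 : (x' : G) * y = y * x'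
    · rw [if_pos e1, if_pos e2, if_pos (by rw [mul_assoc, e2, ← mul_assoc, e1, mul_assoc]),
        add_zero]
    · rw [if_pos e1, if_neg e2, if_neg (H49.XS.mul_ne_of_eq_of_ne e1 e2), zero_add]
    · rw [if_neg e1, if_pos e2, if_neg (H49.XS.mul_ne_of_ne_of_eq e1 e2), add_zero]
    · rw [if_neg e1, if_neg e2, if_pos (h.mul_comm_of_ne_of_ne x.2 x'.2 y.2 e1 e2)]
      decide
  · intro a ha
    obtain ⟨x, rfl⟩ := αs a
    rw [αk, h.mem_Z]
    refine h.cent x x.2 fun y hy => by_contra fun e => ?_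
    have := ha (α ⟨y, hy⟩)
    rw [beta h, if_neg e] at this
    exact one_ne_zero this

end Cfsg.Agent.H54.RfXq1
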